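import Cfsg.Agent.Comp.ON.Main
import Cfsg.Agent.Comp.J1.Model
import Cfsg.Agent.Comp.M11.Model

/-! Subgroups `J₁` and `M₁₁` of the presented O'Nan group. -/

set_option autoImplicit false
set_option maxRecDepth 1000000
set_option Elab.async false

namespace CF.Comp.ON

/-- standard generators of a subgroup `J₁` -/
def JW : List (List ℕ) :=
  [[7, 9, 5, 13, 7, 3, 9, 11, 1, 5, 7, 9, 7, 9, 7, 5, 2, 11, 9, 3, 7, 13, 5, 9, 7], [3, 5]]

/-- standard generators of a subgroup `M₁₁` -/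
def MW : List (List ℕ) :=
  [[5, 1, 13, 7, 9, 11, 5, 9, 3, 1, 3, 7, 9, 7, 9, 7, 3, 2, 3, 9, 5, 11, 9, 7, 13, 2, 5], [9, 1, 9, 1]]

theorem rels_of {rs ws : List (List ℕ)} (h : lall (fun r => baseFix N C (subst ws r)) rs = true) :
    ∀ r ∈ rs, ev (evs f ws) r = 1 :=
  fun r hr => (ev_evs ws r).trans (exact.eq_one_of_baseFix (lall_iff.1 h r hr))

theorem ne_of {ws : List (List ℕ)} (h : fixW N 0 (subst ws [1]) = false) : ev (evs f ws) [1] ≠ 1 :=
  fun e => reps.not_fixW (by decide) h (by rw [← ev_evs, e, one_smul])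

theorem exists_J1 : ∃ φ : PG J1.N0 →* Cfsg.Spor.ON, Function.Injective φ :=
  (J1.exists_inj (rels_of (ws := JW) (by decide +kernel)) (ne_of (by decide +kernel))).imp fun _ h => h.1

theorem exists_M11 : ∃ φ : PG M11.N0 →* Cfsg.Spor.ON, Function.Injective φ :=
  (M11.exists_inj (rels_of (ws := MW) (by decide +kernel)) (ne_of (by decide +kernel))).imp fun _ h => h.1

end CF.Comp.ON
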